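import Cfsg.Agent.Base
import Cfsg.Agent.Lib.PGroup.Frattini
import Cfsg.Agent.Lib.LocStruct.SylowIn
import Cfsg.Agent.Lib.Core.Coprime

/-!
# Uniserial action of a `p`-group on a `p`-group; `p`-groups of maximal class
-/

set_option autoImplicit false

namespace H25.Uni

open Subgroup Cfsg H69
open scoped commutatorElement

variable {L : Type*} [Group L] {p : ℕ}

theorem iter_zero (N G : Subgroup L) : iterCommutator N G 0 = N := rfl

theorem iter_succ (N G : Subgroup L) (i : ℕ) :
    iterCommutator N G (i + 1) = ⁅iterCommutator N G i, G⁆ := rfl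

theorem le_normalizer_iter {N G T : Subgroup L} (hN : T ≤ 𝐍(N)) (hG : T ≤ 𝐍(G)) (i : ℕ) :
    T ≤ 𝐍(iterCommutator N G i) := by
  induction i with
  | zero => exact hN
  | succ i ih => exact le_normalizer_commutator ih hG

theorem iter_succ_le {N G : Subgroup L} (hGN : G ≤ 𝐍(N)) (i : ℕ) :
    iterCommutator N G (i + 1) ≤ iterCommutator N G i :=
  commutator_le_left_of_le_normalizer (le_normalizer_iter hGN le_normalizer i)

theorem iter_antitone {N G : Subgroup L} (hGN : G ≤ 𝐍(N)) : Antitone (iterCommutator N G) :=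
  antitone_nat_of_succ_le (iter_succ_le hGN)

theorem iter_le {N G : Subgroup L} (hGN : G ≤ 𝐍(N)) (i : ℕ) : iterCommutator N G i ≤ N :=
  iter_antitone hGN (Nat.zero_le i)

theorem iter_mono {N G T : Subgroup L} (h : G ≤ T) (i : ℕ) :
    iterCommutator N G i ≤ iterCommutator N T i := by
  induction i with
  | zero => exact le_rfl
  | succ i ih => exact commutator_mono ih h

theorem iter_commutator_top (i : ℕ) :
    iterCommutator (_root_.commutator L) ⊤ i = (⊤ : Subgroup L).lowerCentralSeries (i + 1) := by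
  induction i with
  | zero => rfl
  | succ i ih => rw [iter_succ, ih]; rfl

variable [Finite L] [hp : Fact p.Prime]

theorem card_mul_le_of_lt {K P : Subgroup L} (hP : IsPGroup p P) (h : K < P) :
    Nat.card K * p ≤ Nat.card P := by
  obtain ⟨M, -, h2, -, h4⟩ := H5.exists_card_eq_mul_of_lt hP h
  rw [← h4]
  exact card_le_of_le h2

theorem card_iter_succ_mul_le {N G : Subgroup L} (hN : IsPGroup p N) (hG : IsPGroup p G)
    (hGN : G ≤ 𝐍(N)) {i : ℕ} (h : iterCommutator N G i ≠ ⊥) :
    Nat.card (iterCommutator N G (i + 1)) * p ≤ Nat.card (iterCommutator N G i) :=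
  card_mul_le_of_lt (hN.to_le (iter_le hGN i)) (commutator_lt_of_isPGroup (hN.to_le (iter_le hGN i))
    hG (le_normalizer_iter hGN le_normalizer i) h)

theorem card_iter_add_mul_le {N G : Subgroup L} (hN : IsPGroup p N) (hG : IsPGroup p G)
    (hGN : G ≤ 𝐍(N)) (i j : ℕ) (h : j = 0 ∨ iterCommutator N G (i + j - 1) ≠ ⊥) :
    Nat.card (iterCommutator N G (i + j)) * p ^ j ≤ Nat.card (iterCommutator N G i) := by
  induction j with
  | zero => simp
  | succ j ih =>
    have h1 : iterCommutator N G (i + j) ≠ ⊥ := h.resolve_left (Nat.succ_ne_zero j)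
    have h2 := ih (Or.inr fun h3 => h1 (le_bot_iff.mp (h3 ▸ iter_antitone hGN (Nat.sub_le _ _))))
    have h3 := card_iter_succ_mul_le hN hG hGN h1
    calc Nat.card (iterCommutator N G (i + (j + 1))) * p ^ (j + 1)
        = Nat.card (iterCommutator N G (i + j + 1)) * p * p ^ j := by rw [pow_succ']; ring_nf
      _ ≤ Nat.card (iterCommutator N G (i + j)) * p ^ j := Nat.mul_le_mul_right _ h3
      _ ≤ _ := h2

/-- A long chain forces `p ^ n ≤ |N|`. -/
theorem pow_le_card_of_iter_ne_bot {N G : Subgroup L} (hN : IsPGroup p N) (hG : IsPGroup p G)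
    (hGN : G ≤ 𝐍(N)) {i n : ℕ} (hi : i ≤ n) (h : iterCommutator N G (n - 1) ≠ ⊥ ∨ n = 0) :
    p ^ (n - i) ≤ Nat.card (iterCommutator N G i) := by
  have := card_iter_add_mul_le hN hG hGN i (n - i) (by
    rcases h with h | h
    · right; rwa [Nat.add_sub_cancel' hi]
    · left; omega)
  exact le_trans (Nat.le_mul_of_pos_left _ Nat.card_pos) this

theorem card_iter_eq {N G : Subgroup L} (hN : IsPGroup p N) (hG : IsPGroup p G)
    (hGN : G ≤ 𝐍(N)) {n : ℕ} (hn : Nat.card N = p ^ n)
    (h : iterCommutator N G (n - 1) ≠ ⊥ ∨ n = 0) {i : ℕ} (hi : i ≤ n) :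
    Nat.card (iterCommutator N G i) = p ^ (n - i) := by
  refine le_antisymm ?_ (pow_le_card_of_iter_ne_bot hN hG hGN hi h)
  have := card_iter_add_mul_le hN hG hGN 0 i (by
    rcases h with h | h
    · rcases Nat.eq_zero_or_pos i with h0 | h0
      · exact Or.inl h0
      · right
        exact fun h3 => h (le_bot_iff.mp (h3 ▸ iter_antitone hGN (by omega)))
    · left; omega)
  rw [zero_add, iter_zero, hn, ← Nat.sub_add_cancel hi, pow_add] at this
  rw [← Nat.sub_add_cancel hi, Nat.add_sub_cancel]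
  exact Nat.le_of_mul_le_mul_right this (pow_pos hp.out.pos _)

theorem iter_eq_bot {N G : Subgroup L} (hN : IsPGroup p N) (hG : IsPGroup p G)
    (hGN : G ≤ 𝐍(N)) {n : ℕ} (hn : Nat.card N = p ^ n)
    (h : iterCommutator N G (n - 1) ≠ ⊥ ∨ n = 0) : iterCommutator N G n = ⊥ := by
  rw [← card_eq_one, card_iter_eq hN hG hGN hn h le_rfl, Nat.sub_self, pow_zero]

theorem le_normalizer_iter_self {N G : Subgroup L} (hN : IsPGroup p N) (hG : IsPGroup p G)
    (hGN : G ≤ 𝐍(N)) {n : ℕ} (hn : Nat.card N = p ^ n)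
    (h : iterCommutator N G (n - 1) ≠ ⊥ ∨ n = 0) {i : ℕ} (hi : i ≤ n) :
    N ≤ 𝐍(iterCommutator N G i) := by
  have hT : IsPGroup p (G ⊔ N : Subgroup L) := hG.to_sup_of_normal_right' hN hGN
  have hTN : G ⊔ N ≤ 𝐍(N) := sup_le hGN le_normalizer
  have h1 : iterCommutator N G i = iterCommutator N (G ⊔ N) i := by
    apply eq_of_le_of_card_ge (iter_mono le_sup_left i)
    rw [card_iter_eq hN hG hGN hn h hi, card_iter_eq hN hT hTN hn (h.imp_left fun h1 h2 =>
      h1 (le_bot_iff.mp (h2 ▸ iter_mono le_sup_left _))) hi]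
  rw [h1]
  exact le_sup_right.trans (le_normalizer_iter hTN le_normalizer i)

/-- With a long commutator chain, the invariant subgroups are the terms of the chain. -/
theorem eq_iter_of_invariant {N G : Subgroup L} (hN : IsPGroup p N) (hG : IsPGroup p G)
    (hGN : G ≤ 𝐍(N)) {n : ℕ} (hn : Nat.card N = p ^ n)
    (h : iterCommutator N G (n - 1) ≠ ⊥ ∨ n = 0) {H : Subgroup L} (hH : H ≤ N) (hGH : G ≤ 𝐍(H)) :
    ∃ i ≤ n, H = iterCommutator N G i := by
  classical
  set i := Nat.findGreatest (fun i => H ≤ iterCommutator N G i) n with hi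
  have hin : i ≤ n := Nat.findGreatest_le n
  have hHi : H ≤ iterCommutator N G i :=
    Nat.findGreatest_spec (P := fun i => H ≤ iterCommutator N G i) (Nat.zero_le n) hH
  refine ⟨i, hin, le_antisymm hHi ?_⟩
  rcases hin.eq_or_lt with heq | hlt
  · rw [heq, iter_eq_bot hN hG hGN hn h]; exact bot_le
  have hnot : ¬ H ≤ iterCommutator N G (i + 1) :=
    Nat.findGreatest_is_greatest (P := fun i => H ≤ iterCommutator N G i) (Nat.lt_succ_self i) hlt
  have h1 : iterCommutator N G i ≤ H ⊔ iterCommutator N G (i + 1) := by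
    refine (eq_of_le_of_card_ge (sup_le hHi (iter_succ_le hGN i)) ?_).ge
    have h2 := card_mul_le_of_lt (hN.to_le (sup_le hH (iter_le hGN (i + 1))))
      (show iterCommutator N G (i + 1) < H ⊔ iterCommutator N G (i + 1) from
        lt_of_le_of_ne le_sup_right fun h3 => hnot (h3 ▸ le_sup_left))
    rwa [card_iter_eq hN hG hGN hn h hlt, ← pow_succ, show n - (i + 1) + 1 = n - i by omega,
      ← card_iter_eq hN hG hGN hn h hin] at h2
  exact le_of_le_sup_commutator (hN.to_le (iter_le hGN i)) hG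
    (le_normalizer_iter hGN le_normalizer i) hHi hGH h1

theorem relIndex_commutator_eq {N G : Subgroup L} (hN : IsPGroup p N) (hG : IsPGroup p G)
    (hGN : G ≤ 𝐍(N)) {n : ℕ} (hn : Nat.card N = p ^ n)
    (h : iterCommutator N G (n - 1) ≠ ⊥ ∨ n = 0) {H : Subgroup L} (hH : H ≤ N) (hGH : G ≤ 𝐍(H))
    (hne : H ≠ ⊥) : (⁅H, G⁆).relIndex H = p := by
  obtain ⟨i, hi, rfl⟩ := eq_iter_of_invariant hN hG hGN hn h hH hGH
  have hlt : i < n := lt_of_le_of_ne hi fun h1 => hne (h1 ▸ iter_eq_bot hN hG hGN hn h)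
  have h1 := H1.card_mul_relIndex_of_le (iter_succ_le hGN i)
  rw [card_iter_eq hN hG hGN hn h hlt, card_iter_eq hN hG hGN hn h hi,
    show n - i = n - (i + 1) + 1 by omega, pow_succ] at h1
  exact Nat.eq_of_mul_eq_mul_left (pow_pos hp.out.pos _) h1

theorem iter_ne_bot_of_uniserial {N G : Subgroup L} (hGN : G ≤ 𝐍(N)) {n : ℕ}
    (hn : Nat.card N = p ^ n)
    (h : ∀ H : Subgroup L, H ≤ N → G ≤ 𝐍(H) → H ≠ ⊥ → (⁅H, G⁆).relIndex H = p) :
    iterCommutator N G (n - 1) ≠ ⊥ ∨ n = 0 := by
  have key : ∀ i ≤ n, Nat.card (iterCommutator N G i) = p ^ (n - i) := by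
    intro i hi
    induction i with
    | zero => exact hn
    | succ i ih =>
      have h1 := ih (by omega)
      have h2 := H1.card_mul_relIndex_of_le (iter_succ_le hGN i)
      rw [iter_succ, h _ (iter_le hGN i) (le_normalizer_iter hGN le_normalizer i) (by
        intro h3
        rw [h3, card_bot] at h1
        exact (Nat.one_lt_pow (by omega) hp.out.one_lt).ne h1), h1,
        show n - i = n - (i + 1) + 1 by omega, pow_succ] at h2
      exact Nat.eq_of_mul_eq_mul_right hp.out.pos h2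
  rcases Nat.eq_zero_or_pos n with h0 | h0
  · exact Or.inr h0
  · left
    intro h3
    have h1 := key (n - 1) (Nat.sub_le _ _)
    rw [h3, card_bot] at h1
    exact (Nat.one_lt_pow (by omega) hp.out.one_lt).ne h1

end H25.Uni
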